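import Cfsg.Agent.QdSection.SL2Copy
import Cfsg.Agent.SL2.Sylow
import Cfsg.Agent.GlaubermanZJ.PStable
import Cfsg.Agent.Constrained.PSolvable
import Mathlib.GroupTheory.SpecificGroups.Quaternion

/-!
Sections `SL(2, p)` of faithful groups with a quadratic element outside `O_p`, and their obstructions.
-/

set_option autoImplicit false

namespace CfsgLib.QdSection

open Cfsg
open Matrix
open scoped commutatorElement

variable {p : ℕ} [hpf : Fact p.Prime] {G : Type*} [Group G] [Finite G]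

/-- A quadratic element outside `O_p` of a faithful group gives a section `SL(2, p)`. -/
theorem exists_sl_two_section_of_faithful (hp : p ≠ 2) (V H : Subgroup G) (hV : IsElementaryAbelian p V)
    (hHV : H ≤ Subgroup.normalizer (V : Set G)) (hf : H ⊓ Subgroup.centralizer (V : Set G) = ⊥) {a : G}
    (haH : a ∈ H) (hq : ⁅⁅V, Subgroup.zpowers a⁆, Subgroup.zpowers a⁆ = ⊥)
    (hna : a ∉ (pCore p H).map H.subtype) :
    ∃ (K L : Subgroup G) (_ : (L.subgroupOf K).Normal), K ≤ H ∧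
      Nonempty ((K ⧸ L.subgroupOf K) ≃* SpecialLinearGroup (Fin 2) (ZMod p)) := by
  have ha := commutator_eq_one_of_zpowers hq
  by_contra hno
  refine hna ⟨⟨a, haH⟩, CfsgLib.BaerSuzuki.mem_pCore _ fun x => ?_, rfl⟩
  by_contra hnp
  have hxa : ((x : G) * a * (x : G)⁻¹) ∈ H := mul_mem (mul_mem x.2 haH) (inv_mem x.2)
  obtain ⟨s⟩ := exists_conjSection hp V H hV hHV haH hxa ha (conj_quadratic_mem (hHV x.2) ha) fun hall => hnp (by
    rintro ⟨y, hy⟩
    have hmap : (Subgroup.closure ({⟨a, haH⟩, x * ⟨a, haH⟩ * x⁻¹} : Set H)).map H.subtype =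
        Subgroup.closure {a, (x : G) * a * (x : G)⁻¹} := by
      rw [MonoidHom.map_closure, Set.image_pair]; rfl
    obtain ⟨k, hk⟩ := hall y (hmap ▸ ⟨y, hy, rfl⟩)
    refine ⟨k, Subtype.ext (Subtype.ext ?_)⟩
    have h1 : (y : G) ^ p ^ k ∈ H ⊓ Subgroup.centralizer (V : Set G) := ⟨pow_mem y.2 _, hk⟩
    rw [hf, Subgroup.mem_bot] at h1
    simpa using h1)
  exact hno s.sl_two_section

theorem quaternion_not_comm {n : ℕ} (hn : 2 ≤ n) : ¬ ∀ x y : QuaternionGroup n, x * y = y * x := by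
  intro h
  have h1 := h (QuaternionGroup.a 1) (QuaternionGroup.xa 0)
  rw [QuaternionGroup.a_mul_xa, QuaternionGroup.xa_mul_a] at h1
  injection h1 with h2
  have h3 : ((2 : ℕ) : ZMod (2 * n)) = 0 := by
    rw [zero_sub, zero_add] at h2
    push_cast; linear_combination -h2
  rw [ZMod.natCast_eq_zero_iff] at h3
  have := Nat.le_of_dvd two_pos h3
  omega

/-- Abelian `2`-subgroups exclude sections `SL(2, p)` inside a subgroup, `p` odd. -/
theorem no_sl_two_section_of_abelian (hp : p ≠ 2) (H : Subgroup G)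
    (h : ∀ A : Subgroup H, IsPGroup 2 A → IsMulCommutative A) :
    ¬ ∃ (K L : Subgroup G) (_ : (L.subgroupOf K).Normal), K ≤ H ∧
      Nonempty ((K ⧸ L.subgroupOf K) ≃* SpecialLinearGroup (Fin 2) (ZMod p)) := by
  rintro ⟨K, L, hL, hKH, ⟨e⟩⟩
  haveI : Fact (Nat.Prime 2) := ⟨Nat.prime_two⟩
  have h2 : (2 : ZMod p) ≠ 0 := by
    intro h0
    have h1 : ((2 : ℕ) : ZMod p) = 0 := by exact_mod_cast h0
    rw [ZMod.natCast_eq_zero_iff] at h1
    exact hp ((Nat.prime_dvd_prime_iff_eq hpf.out Nat.prime_two).mp h1)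
  obtain ⟨P⟩ : Nonempty (Sylow 2 (SpecialLinearGroup (Fin 2) (ZMod p))) := inferInstance
  obtain ⟨k, hk, ⟨q⟩⟩ := CfsgLib.SL2.sylow_two_quaternion h2 P
  let φ : K →* SpecialLinearGroup (Fin 2) (ZMod p) := e.toMonoidHom.comp (QuotientGroup.mk' _)
  have hφ : Function.Surjective φ := e.surjective.comp (QuotientGroup.mk'_surjective _)
  have hK : ∀ A : Subgroup K, IsPGroup 2 A → IsMulCommutative A := fun A hA => by
    have hA' := h (A.map (Subgroup.inclusion hKH)) (hA.map _)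
    exact ⟨⟨fun x y => Subtype.ext (Subgroup.inclusion_injective hKH (congrArg Subtype.val
      (hA'.is_comm.comm ⟨_, x.1, x.2, rfl⟩ ⟨_, y.1, y.2, rfl⟩)))⟩⟩
  obtain ⟨S⟩ : Nonempty (Sylow 2 K) := inferInstance
  obtain ⟨g, hg⟩ := MulAction.exists_smul_eq (SpecialLinearGroup (Fin 2) (ZMod p)) (S.mapSurjective hφ) P
  have hcomm : ∀ x ∈ (P : Subgroup (SpecialLinearGroup (Fin 2) (ZMod p))),
      ∀ y ∈ (P : Subgroup (SpecialLinearGroup (Fin 2) (ZMod p))), x * y = y * x := by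
    rw [← hg]
    rintro _ ⟨_, ⟨x, hx, rfl⟩, rfl⟩ _ ⟨_, ⟨y, hy, rfl⟩, rfl⟩
    show MulAut.conj g (φ x) * MulAut.conj g (φ y) = MulAut.conj g (φ y) * MulAut.conj g (φ x)
    rw [← map_mul, ← map_mul, ← map_mul, ← map_mul]
    exact congrArg _ (congrArg φ (congrArg Subtype.val ((hK _ S.2).is_comm.comm ⟨x, hx⟩ ⟨y, hy⟩)))
  refine quaternion_not_comm (n := 2 ^ k) ?_ fun x y => q.symm.injective ?_
  · calc 2 = 2 ^ 1 := rfl
      _ ≤ 2 ^ k := Nat.pow_le_pow_right two_pos hk
  · rw [map_mul, map_mul]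
    exact Subtype.ext (hcomm _ (q.symm x).2 _ (q.symm y).2)

omit [Finite G] in
/-- A subgroup of `SL(2)` generated by two elements killed by `p`, without such sections, is a `p`-group. -/
theorem isPGroup_of_noSL2Section_of_pair {Y : Type*} [Group Y] (h : CfsgLib.GlaubermanZJ.NoSL2Section p Y)
    (φ : Y →* SpecialLinearGroup (Fin 2) (CfsgLib.GlaubermanZJ.FpBar p)) (hφ : Function.Injective φ) {a b : Y}
    (hgen : Subgroup.closure ({a, b} : Set Y) = ⊤) (ha : a ^ p = 1) (hb : b ^ p = 1) : IsPGroup p Y := by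
  let ι : Y →* (⊤ : Subgroup Y) := Subgroup.topEquiv.symm.toMonoidHom
  let ψ := φ.comp (Subgroup.topEquiv (G := Y)).toMonoidHom
  have hr := h ⊤ ψ (ι a) (ι b)
    (by rw [← Set.image_pair, ← MonoidHom.map_closure, hgen]
        exact Subgroup.map_top_of_surjective _ Subgroup.topEquiv.symm.surjective)
    (by show φ a ^ p = 1; rw [← map_pow, ha, map_one]) (by show φ b ^ p = 1; rw [← map_pow, hb, map_one])
  exact hr.of_injective (φ.codRestrict ψ.range fun x => ⟨ι x, rfl⟩) fun x y hxy => hφ (congrArg Subtype.val hxy)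

/-- A `p`-solvable group with a section `SL(2, p)` has `p ≤ 3`. -/
theorem eq_three_of_sl_two_section (hp : p ≠ 2) (H : Subgroup G) (hsep : IsPSolvable p H)
    (h : ∃ (K L : Subgroup G) (_ : (L.subgroupOf K).Normal), K ≤ H ∧
      Nonempty ((K ⧸ L.subgroupOf K) ≃* SpecialLinearGroup (Fin 2) (ZMod p))) : p = 3 := by
  obtain ⟨K, L, hL, hKH, ⟨e⟩⟩ := h
  by_contra h3
  have h5 : 5 ≤ p := by
    have := hpf.out.two_le
    have : p ≠ 4 := fun h4 => by rw [h4] at hpf; exact absurd hpf.out (by norm_num)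
    omega
  have hsol : IsPSolvable p (SpecialLinearGroup (Fin 2) (ZMod p)) :=
    CfsgLib.Constrained.IsPSolvable.of_surjective
      (CfsgLib.Constrained.IsPSolvable.of_injective hsep (Subgroup.inclusion hKH) (Subgroup.inclusion_injective hKH))
      (e.toMonoidHom.comp (QuotientGroup.mk' _)) (e.surjective.comp (QuotientGroup.mk'_surjective _))
  have hns := CfsgLib.GlaubermanZJ.noSL2Section_of_isPSolvable hp hsol (Or.inl h5)
  let u : SpecialLinearGroup (Fin 2) (ZMod p) := upT 1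
  let v : SpecialLinearGroup (Fin 2) (ZMod p) := lowT 1
  have htop : Subgroup.closure ({u, v} : Set (SpecialLinearGroup (Fin 2) (ZMod p))) = ⊤ :=
    eq_top_of_mem (s := 1) (t := 1) one_ne_zero one_ne_zero (Subgroup.subset_closure (Set.mem_insert _ _))
      (Subgroup.subset_closure (Set.mem_insert_of_mem _ rfl))
  have hpow : ∀ n : ℕ, u ^ n = upT (n : ZMod p) ∧ v ^ n = lowT (n : ZMod p) := by
    intro n
    induction n with
    | zero => exact ⟨by rw [pow_zero, Nat.cast_zero, upT_zero], by rw [pow_zero, Nat.cast_zero, lowT_zero]⟩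
    | succ n ih => exact ⟨by rw [pow_succ, ih.1, upT_mul, Nat.cast_succ], by rw [pow_succ, ih.2, lowT_mul, Nat.cast_succ]⟩
  set φ : SpecialLinearGroup (Fin 2) (ZMod p) →* SpecialLinearGroup (Fin 2) (CfsgLib.GlaubermanZJ.FpBar p) :=
    SpecialLinearGroup.map (algebraMap (ZMod p) (CfsgLib.GlaubermanZJ.FpBar p))
  have hφ : Function.Injective φ := fun a b hab => by
    apply Subtype.ext; ext i j
    exact (algebraMap (ZMod p) (CfsgLib.GlaubermanZJ.FpBar p)).injective
      (congrArg (fun m : SpecialLinearGroup (Fin 2) (CfsgLib.GlaubermanZJ.FpBar p) => m.1 i j) hab)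
  have hu : u ^ p = 1 := by rw [(hpow p).1, ZMod.natCast_self, upT_zero]
  have hv : v ^ p = 1 := by rw [(hpow p).2, ZMod.natCast_self, lowT_zero]
  have hPG : IsPGroup p (SpecialLinearGroup (Fin 2) (ZMod p)) :=
    isPGroup_of_noSL2Section_of_pair hns φ hφ htop hu hv
  obtain ⟨k, hk⟩ := hPG (-1)
  rw [(hpf.out.odd_of_ne_two hp).pow.neg_one_pow] at hk
  have h1 := congrArg (fun m : SpecialLinearGroup (Fin 2) (ZMod p) => m.1 0 0) hk
  simp at h1
  exact neg_one_ne_one_zmod hp h1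

/-- Groups with abelian Sylow `2`-subgroups have no sections of that kind, `p` odd. -/
theorem noSL2Section_of_abelian_two (hp : p ≠ 2) (hab : ∀ T : Sylow 2 G, IsMulCommutative T) :
    CfsgLib.GlaubermanZJ.NoSL2Section p G := by
  refine noSL2Section_of_no_section hp fun ⟨K, L, hL, he⟩ =>
    no_sl_two_section_of_abelian hp ⊤ (fun A hA => ?_) ⟨K, L, hL, le_top, he⟩
  have := CfsgLib.GlaubermanZJ.forall_isMulCommutative_of_sylow hab (hA.map (⊤ : Subgroup G).subtype)
  refine ⟨⟨fun x y => Subtype.ext (Subgroup.subtype_injective _ ?_)⟩⟩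
  exact congrArg Subtype.val (this.is_comm.comm ⟨_, x.1, x.2, rfl⟩ ⟨_, y.1, y.2, rfl⟩)

end CfsgLib.QdSection
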