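import Cfsg.Agent.QdSection.KInfFusion

/-!
The normalizers of the nontrivial characteristic subgroups of a Sylow `p`-subgroup of `Qd(p)`.
-/

set_option autoImplicit false

open Cfsg
open CfsgLib.QdRankTwo

namespace CfsgLib.QdSection

variable {p : ℕ} [Fact p.Prime]

/-- The automorphism of the upper part exchanging its two abelian subgroups of order `p ^ 2`. -/
theorem exists_swap : ∃ σ : MulAut (qdUpper p), ∀ (t u v : ZMod p) (h : qM 1 t 0 1 u v (by ring) ∈ qdUpper p),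
    ((σ ⟨_, h⟩ : qdUpper p) : Cfsg.qd p) = qM 1 v 0 1 (t * v - u) t (by ring) := by
  choose T U V hg using fun g : qdUpper p => g.2
  let F : qdUpper p → qdUpper p := fun g => ⟨qM 1 (V g) 0 1 (T g * V g - U g) (T g) (by ring), V g, _, T g, rfl⟩
  have hF : ∀ (g : qdUpper p) (t u v : ZMod p), (g : Cfsg.qd p) = qM 1 t 0 1 u v (by ring) →
      (F g : Cfsg.qd p) = qM 1 v 0 1 (t * v - u) t (by ring) := by
    intro g t u v hgq
    obtain ⟨-, h1, -, -, h2, h3⟩ := qM_inj (hgq.symm.trans (hg g))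
    show qM 1 (V g) 0 1 (T g * V g - U g) (T g) (by ring) = _
    apply qM_congr <;> simp [← h1, ← h2, ← h3]
  have hinv : Function.Involutive F := fun g => Subtype.ext (by
    rw [hF (F g) _ _ _ rfl]
    refine Eq.trans ?_ (hg g).symm
    apply qM_congr <;> ring)
  refine ⟨{ toFun := F, invFun := F, left_inv := hinv, right_inv := hinv, map_mul' := fun g g' => ?_ },
    fun t u v h => hF ⟨_, h⟩ t u v rfl⟩
  have hmul : ((g * g' : qdUpper p) : Cfsg.qd p) =
      qM 1 (T g + T g') 0 1 (U g' + T g * V g' + U g) (V g' + V g) (by ring) := by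
    rw [Subgroup.coe_mul]
    conv_lhs => rw [hg g, hg g', qM_mul]
    apply qM_congr <;> ring
  apply Subtype.ext
  rw [hF _ _ _ _ hmul, Subgroup.coe_mul]
  refine Eq.trans ?_ (congrArg₂ (· * ·) (hF g _ _ _ (hg g)) (hF g' _ _ _ (hg g'))).symm
  show _ = _ * _
  rw [qM_mul]
  apply qM_congr <;> ring

theorem mem_normalizer_qdUpper {g : Cfsg.qd p} {a b d u v : ZMod p} {h : a * d - b * 0 = 1}
    (hg : g = qM a b 0 d u v h) : g ∈ Subgroup.normalizer (qdUpper p : Set (Cfsg.qd p)) := by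
  refine Subgroup.mem_normalizer_iff_map_conj_eq.2
    (Subgroup.eq_of_le_of_card_ge ?_ (Subgroup.card_map_of_injective (MulAut.conj g).injective).ge)
  rintro _ ⟨x, ⟨t, u', v', rfl⟩, rfl⟩
  refine ⟨a * t * a, a * u' + b * v' - a * t * a * v, d * v', ?_⟩
  show g * _ * g⁻¹ = _
  rw [hg, mul_inv_eq_iff_eq_mul, qM_mul, qM_mul]
  apply qM_congr
  · ring
  · linear_combination (-a * t) * h
  · ring
  · ring
  · ring
  · ring

/-- A nontrivial subgroup of the upper part invariant under the swap is normalized only by triangular elements. -/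
theorem normalizer_le_of_swap {T : Subgroup (Cfsg.qd p)} (hne : T ≠ ⊥) (hle : T ≤ qdUpper p)
    (hswap : ∀ t u v : ZMod p, qM 1 t 0 1 u v (by ring) ∈ T → qM 1 v 0 1 (t * v - u) t (by ring) ∈ T) :
    Subgroup.normalizer (T : Set (Cfsg.qd p)) ≤ Subgroup.normalizer (qdUpper p : Set (Cfsg.qd p)) := by
  intro g hg
  obtain ⟨a, b, c, d, u₀, v₀, h, rfl⟩ := exists_qM g
  by_cases hc : c = 0
  · subst hc
    exact mem_normalizer_qdUpper rfl
  exfalso
  have hconj : ∀ t u v : ZMod p, qM 1 t 0 1 u v (by ring) ∈ T →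
      ∃ t' u' v' : ZMod p, qM 1 t' 0 1 u' v' (by ring) ∈ T ∧
        qM 1 t' 0 1 u' v' (by ring) * qM a b c d u₀ v₀ h = qM a b c d u₀ v₀ h * qM 1 t 0 1 u v (by ring) := by
    intro t u v hx
    have h1 := (Subgroup.mem_normalizer_iff.1 hg _).1 hx
    obtain ⟨t', u', v', he⟩ := hle h1
    rw [he] at h1
    exact ⟨t', u', v', h1, by rw [← he, inv_mul_cancel_right]⟩
  have ht : ∀ t u v : ZMod p, qM 1 t 0 1 u v (by ring) ∈ T → t = 0 := by
    intro t u v hx
    obtain ⟨t', u', v', -, he⟩ := hconj t u v hx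
    rw [qM_mul, qM_mul] at he
    obtain ⟨-, -, -, e4, -, -⟩ := qM_inj he
    have : c * t = 0 := by linear_combination -e4
    exact (mul_eq_zero.1 this).resolve_left hc
  have hv : ∀ t u v : ZMod p, qM 1 t 0 1 u v (by ring) ∈ T → v = 0 := fun t u v hx => ht _ _ _ (hswap t u v hx)
  refine hne (eq_bot_iff.2 fun x hx => ?_)
  obtain ⟨t, u, v, rfl⟩ := hle hx
  obtain ⟨t', u', v', hx', he⟩ := hconj t u v hx
  have e1 := ht _ _ _ hx
  have e2 := hv _ _ _ hx
  have e3 := hv _ _ _ hx'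
  subst e1 e2 e3
  rw [qM_mul, qM_mul] at he
  obtain ⟨-, -, -, -, -, e6⟩ := qM_inj he
  have : c * u = 0 := by linear_combination -e6
  have hu := (mul_eq_zero.1 this).resolve_left hc
  subst hu
  rw [Subgroup.mem_bot]
  exact qM_one

/-- `Qd(p)`: normalizers of characteristic subgroups of Sylow subgroups. -/
theorem normalizer_characteristic (S : Sylow p ↥(Cfsg.qd p)) (T : Subgroup ↥(S : Subgroup ↥(Cfsg.qd p)))
    (hT : T ≠ ⊥) (hTc : T.Characteristic) :
    Subgroup.normalizer ((T.map (S : Subgroup ↥(Cfsg.qd p)).subtype : Subgroup ↥(Cfsg.qd p)) : Set ↥(Cfsg.qd p)) =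
        Subgroup.normalizer ((S : Subgroup ↥(Cfsg.qd p)) : Set ↥(Cfsg.qd p)) ∧
      Subgroup.normalizer ((S : Subgroup ↥(Cfsg.qd p)) : Set ↥(Cfsg.qd p)) ≠ ⊤ := by
  have hp0 : IsPGroup p (qdUpper p) := isPGroup_qdUpper
  obtain ⟨S0, hS0⟩ := hp0.exists_le_sylow
  have hS0' := eq_qdUpper_of_le S0.2 hS0
  obtain ⟨h, hh⟩ := MulAction.exists_smul_eq (Cfsg.qd p) S0 S
  set c := (MulAut.conj h) with hc
  have hmap : (qdUpper p).map c.toMonoidHom = (S : Subgroup (Cfsg.qd p)) := by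
    rw [← hh, ← hS0']; rfl
  let e : qdUpper p ≃* (S : Subgroup (Cfsg.qd p)) :=
    ((qdUpper p).equivMapOfInjective c.toMonoidHom c.injective).trans (MulEquiv.subgroupCongr hmap)
  have he : ∀ x, ((e x : (S : Subgroup (Cfsg.qd p))) : Cfsg.qd p) = c x := fun x => rfl
  set T0 := T.map e.symm.toMonoidHom with hT0
  set T2 := T0.map (qdUpper p).subtype with hT2
  have hT2map : T2.map c.toMonoidHom = T.map (S : Subgroup ↥(Cfsg.qd p)).subtype := by
    rw [hT2, hT0, Subgroup.map_map, Subgroup.map_map]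
    congr 1
    refine MonoidHom.ext fun x => ?_
    show c ((e.symm x : qdUpper p) : Cfsg.qd p) = x
    rw [← he, MulEquiv.apply_symm_apply]
  obtain ⟨σ, hσ⟩ := exists_swap (p := p)
  have hswap : ∀ t u v : ZMod p, qM 1 t 0 1 u v (by ring) ∈ T2 → qM 1 v 0 1 (t * v - u) t (by ring) ∈ T2 := by
    rintro t u v ⟨x, ⟨y, hy, rfl⟩, hxe⟩
    refine ⟨σ (e.symm y), ⟨((e.symm.trans σ).trans e) y, ?_, by simp⟩, ?_⟩
    · exact (Subgroup.characteristic_iff_map_eq.1 hTc ((e.symm.trans σ).trans e)).le ⟨y, hy, rfl⟩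
    · have : e.symm y = ⟨qM 1 t 0 1 u v (by ring), ⟨t, u, v, rfl⟩⟩ := Subtype.ext hxe
      show ((σ (e.symm y) : qdUpper p) : Cfsg.qd p) = _
      rw [this]
      exact hσ t u v _
  have hT2ne : T2 ≠ ⊥ := fun h0 => hT (by
    rwa [hT2, hT0, Subgroup.map_eq_bot_iff_of_injective _ (qdUpper p).subtype_injective,
      Subgroup.map_eq_bot_iff_of_injective _ e.symm.injective] at h0)
  have hle := normalizer_le_of_swap hT2ne (Subgroup.map_subtype_le _) hswap
  refine ⟨le_antisymm ?_ fun g hg => ?_, fun htop => ?_⟩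
  · rw [← hT2map, ← hmap, ← Subgroup.map_equiv_normalizer_eq, ← Subgroup.map_equiv_normalizer_eq]
    exact Subgroup.map_mono hle
  · refine Subgroup.mem_normalizer_iff_map_conj_eq.2
      (Subgroup.eq_of_le_of_card_ge ?_ (Subgroup.card_map_of_injective (MulAut.conj g).injective).ge)
    rintro _ ⟨_, ⟨y, hy, rfl⟩, rfl⟩
    let φ : MulAut (S : Subgroup (Cfsg.qd p)) := Subgroup.normalizerMonoidHom _ ⟨g, hg⟩
    exact ⟨φ y, (Subgroup.characteristic_iff_map_eq.1 hTc φ).le ⟨y, hy, rfl⟩, rfl⟩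
  · refine conj_tU_not_mem_qdUpper (p := p) ?_
    rw [← hmap, ← Subgroup.map_equiv_normalizer_eq, ← Subgroup.map_top_of_surjective c.toMonoidHom c.surjective]
      at htop
    have htop' := Subgroup.map_injective (f := c.toMonoidHom) c.injective htop
    exact (Subgroup.mem_normalizer_iff.1 (htop' ▸ Subgroup.mem_top _) _).1 ⟨1, 0, 0, rfl⟩

end CfsgLib.QdSection
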